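import Mathlib

/-!
# A real orthogonal model of the extraspecial group of plus type

Signed operators `p u` indexed by a quadratic space, multiplying through a bilinear form
whose diagonal is the quadratic form; any operator commuting with all of them is scalar.
-/

set_option autoImplicit false

namespace Cfsg.Agent.Lib.RealClifford

open Matrix

/-- The sign attached to an element of `ZMod 2`. -/
noncomputable def sg (t : ZMod 2) : ℝ := if t = 0 then 1 else -1

theorem zmod2_cases (x : ZMod 2) : x = 0 ∨ x = 1 := by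
  revert x; decide

@[simp] theorem sg_zero : sg 0 = 1 := by simp [sg]

@[simp] theorem sg_one : sg 1 = -1 := by simp [sg]

theorem sg_add (a b : ZMod 2) : sg (a + b) = sg a * sg b := by
  rcases zmod2_cases a with rfl | rfl <;> rcases zmod2_cases b with rfl | rfl <;> simp
  · rw [show (1 + 1 : ZMod 2) = 0 from rfl]; simp

theorem sg_mul_self (a : ZMod 2) : sg a * sg a = 1 := by
  rcases zmod2_cases a with rfl | rfl <;> simp

theorem sg_ne_zero (a : ZMod 2) : sg a ≠ 0 := by
  rcases zmod2_cases a with rfl | rfl <;> simp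

theorem sg_inj {a b : ZMod 2} (h : sg a = sg b) : a = b := by
  rcases zmod2_cases a with rfl | rfl <;> rcases zmod2_cases b with rfl | rfl <;> simp at h ⊢
  · norm_num at h
  · norm_num at h

theorem add_self_mod2 {U : Type*} [AddCommGroup U] [Module (ZMod 2) U] (u : U) : u + u = 0 := by
  rw [← two_smul (ZMod 2) u, show (2 : ZMod 2) = 0 from rfl, zero_smul]

theorem eq_of_add_eq_zero_mod2 {U : Type*} [AddCommGroup U] [Module (ZMod 2) U] {u v : U}
    (h : u + v = 0) : u = v := by
  have := add_self_mod2 v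
  have h2 : u + v = v + v := by rw [h, this]
  exact add_right_cancel h2

section Model

variable {U : Type*} [AddCommGroup U] [Module (ZMod 2) U]
variable {Y : Type} [Fintype Y] [DecidableEq Y] [Nonempty Y]

/-- The abstract model. -/
structure Model (q : QuadraticForm (ZMod 2) U) (Y : Type) [Fintype Y] [DecidableEq Y] where
  p : U → Matrix Y Y ℝ
  s : U →ₗ[ZMod 2] U →ₗ[ZMod 2] ZMod 2
  p_zero : p 0 = 1
  p_mul : ∀ u v, p u * p v = sg (s u v) • p (u + v)
  s_self : ∀ u, s u u = q u
  p_tr : ∀ u, (p u)ᵀ = sg (q u) • p u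
  irr : ∀ T : Matrix Y Y ℝ, (∀ u, T * p u = p u * T) → ∃ c : ℝ, T = c • 1

theorem card_ne_real (Y : Type) [Fintype Y] [Nonempty Y] : ((Fintype.card Y : ℕ) : ℝ) ≠ 0 := by
  have : 0 < Fintype.card Y := Fintype.card_pos
  exact_mod_cast this.ne'

theorem smul_one_inj {c d : ℝ} (h : c • (1 : Matrix Y Y ℝ) = d • 1) : c = d := by
  obtain ⟨y⟩ := ‹Nonempty Y›
  have := congrFun (congrFun h y) y
  simpa using this

theorem smul_cancel {A B : Matrix Y Y ℝ} (hAB : A * B = 1) {c d : ℝ} (h : c • A = d • A) : c = d := by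
  apply smul_one_inj (Y := Y)
  have := congrArg (fun X => X * B) h
  simpa [Matrix.smul_mul, hAB] using this

namespace Model

variable {q : QuadraticForm (ZMod 2) U} (M : Model q Y)

theorem polar_eq (u v : U) : QuadraticMap.polar q u v = M.s u v + M.s v u := by
  unfold QuadraticMap.polar
  rw [← M.s_self (u + v), ← M.s_self u, ← M.s_self v]
  simp only [map_add, LinearMap.add_apply]
  ring

theorem mul_self (u : U) : M.p u * M.p u = sg (q u) • 1 := by
  rw [M.p_mul, M.s_self, add_self_mod2, M.p_zero]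

theorem mul_tr (u : U) : M.p u * (M.p u)ᵀ = 1 := by
  rw [M.p_tr, Matrix.mul_smul, mul_self, smul_smul, sg_mul_self, one_smul]

theorem tr_mul (u : U) : (M.p u)ᵀ * M.p u = 1 := by
  rw [M.p_tr, Matrix.smul_mul, mul_self, smul_smul, sg_mul_self, one_smul]

theorem p_comm (u v : U) : M.p u * M.p v = sg (QuadraticMap.polar q u v) • (M.p v * M.p u) := by
  rw [M.p_mul, M.p_mul v u, add_comm v u, smul_smul, M.polar_eq, sg_add, mul_assoc, sg_mul_self, mul_one]

theorem trace_p {u : U} (hu : u ≠ 0) (hsep : ∀ u : U, (∀ v, QuadraticMap.polar q u v = 0) → u = 0) :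
    Matrix.trace (M.p u) = 0 := by
  have : ∃ v, QuadraticMap.polar q u v ≠ 0 := by
    by_contra h
    push Not at h
    exact hu (hsep u h)
  obtain ⟨v, hv⟩ := this
  have hv1 : QuadraticMap.polar q u v = 1 := (zmod2_cases _).resolve_left hv
  have h1 := M.p_comm u v
  rw [hv1, sg_one] at h1
  have h2 : Matrix.trace (M.p u) = Matrix.trace (M.p u * M.p v * (M.p v)ᵀ) := by
    rw [Matrix.mul_assoc, mul_tr, Matrix.mul_one]
  have h3 : Matrix.trace (M.p u * M.p v * (M.p v)ᵀ) = - Matrix.trace (M.p v * M.p u * (M.p v)ᵀ) := by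
    rw [h1, Matrix.smul_mul, Matrix.trace_smul]; simp
  have h4 : Matrix.trace (M.p v * M.p u * (M.p v)ᵀ) = Matrix.trace (M.p u) := by
    rw [Matrix.mul_assoc, Matrix.trace_mul_comm, Matrix.mul_assoc, tr_mul, Matrix.mul_one]
  rw [h3, h4] at h2
  linarith


/-- Distinctness of the signed operators. -/
theorem p_inj (hsep : ∀ u : U, (∀ v, QuadraticMap.polar q u v = 0) → u = 0) {t t' : ZMod 2} {u v : U}
    (h : sg t • M.p u = sg t' • M.p v) : u = v ∧ t = t' := by
  have h1 : sg t • (M.p u * (M.p v)ᵀ) = sg t' • 1 := by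
    have := congrArg (fun X => X * (M.p v)ᵀ) h
    simpa [Matrix.smul_mul, mul_tr] using this
  have huv : u = v := by
    by_contra hne
    have hne' : u + v ≠ 0 := fun h0 => hne (eq_of_add_eq_zero_mod2 h0)
    have h2 : M.p u * (M.p v)ᵀ = sg (q v) • (sg (M.s u v) • M.p (u + v)) := by
      rw [M.p_tr, Matrix.mul_smul, M.p_mul]
    rw [h2] at h1
    have h3 := congrArg Matrix.trace h1
    simp only [Matrix.trace_smul, M.trace_p hne' hsep, smul_zero, Matrix.trace_one] at h3
    have h4 : sg t' * (Fintype.card Y : ℝ) = 0 := by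
      simpa using h3.symm
    rcases mul_eq_zero.mp h4 with h5 | h5
    · exact sg_ne_zero _ h5
    · exact card_ne_real Y h5
  subst huv
  refine ⟨rfl, ?_⟩
  rw [mul_tr] at h1
  exact sg_inj (smul_one_inj h1)

/-- An operator conjugating each `p u` to a sign times itself is a signed `p a`. -/
theorem eq_of_conj [Module.Finite (ZMod 2) U] (hnd : (QuadraticMap.polarBilin q).Nondegenerate)
    {O : Matrix Y Y ℝ} (hO : Oᵀ * O = 1)
    (h : ∀ u, ∃ t, O * M.p u = sg t • (M.p u * O)) : ∃ a t, O = sg t • M.p a := by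
  classical
  choose f hf using h
  have hO' : O * Oᵀ = 1 := mul_eq_one_comm.mp hO
  have hadd : ∀ u v, f (u + v) = f u + f v := by
    intro u v
    have h1 : O * (M.p u * M.p v) = (sg (f u) * sg (f v)) • (M.p u * M.p v * O) := by
      rw [← Matrix.mul_assoc, hf u, Matrix.smul_mul, Matrix.mul_assoc, hf v, Matrix.mul_smul,
        smul_smul, Matrix.mul_assoc]
    have h2 : O * (M.p u * M.p v) = sg (f (u + v)) • (M.p u * M.p v * O) := by
      rw [M.p_mul, Matrix.mul_smul, hf (u + v), smul_comm, Matrix.smul_mul]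
    rw [h1] at h2
    have hinv : (M.p u * M.p v * O) * (Oᵀ * ((M.p v)ᵀ * (M.p u)ᵀ)) = 1 := by
      calc (M.p u * M.p v * O) * (Oᵀ * ((M.p v)ᵀ * (M.p u)ᵀ))
          = M.p u * (M.p v * ((O * Oᵀ) * (M.p v)ᵀ)) * (M.p u)ᵀ := by
            simp only [Matrix.mul_assoc]
        _ = 1 := by rw [hO', Matrix.one_mul, mul_tr, Matrix.mul_one, mul_tr]
    have h3 := smul_cancel hinv h2
    apply sg_inj
    rw [sg_add, h3]
  let fL : U →ₗ[ZMod 2] ZMod 2 := (AddMonoidHom.mk' f hadd).toZModLinearMap 2
  have hfL : ∀ v, fL v = f v := fun v => rfl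
  let a : U := (LinearMap.BilinForm.toDual (QuadraticMap.polarBilin q) hnd).symm fL
  have ha : ∀ v, QuadraticMap.polar q a v = f v := by
    intro v
    have := LinearMap.BilinForm.apply_toDual_symm_apply (B := QuadraticMap.polarBilin q) (hB := hnd) fL v
    exact this
  have hcomm : ∀ v, (M.p a)ᵀ * M.p v = sg (f v) • (M.p v * (M.p a)ᵀ) := by
    intro v
    have h1 := M.p_comm a v
    rw [ha] at h1
    calc (M.p a)ᵀ * M.p v = (M.p a)ᵀ * (M.p v * (M.p a * (M.p a)ᵀ)) := by
          rw [mul_tr, Matrix.mul_one]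
      _ = (M.p a)ᵀ * (M.p v * M.p a) * (M.p a)ᵀ := by simp only [Matrix.mul_assoc]
      _ = (M.p a)ᵀ * (sg (f v) • (M.p a * M.p v)) * (M.p a)ᵀ := by
          rw [h1, smul_smul, sg_mul_self, one_smul]
      _ = sg (f v) • (((M.p a)ᵀ * M.p a) * M.p v * (M.p a)ᵀ) := by
          simp only [Matrix.mul_smul, Matrix.smul_mul, Matrix.mul_assoc]
      _ = sg (f v) • (M.p v * (M.p a)ᵀ) := by rw [tr_mul, Matrix.one_mul]
  obtain ⟨c, hc⟩ := M.irr ((M.p a)ᵀ * O) (by
    intro v
    calc (M.p a)ᵀ * O * M.p v = (M.p a)ᵀ * (O * M.p v) := by rw [Matrix.mul_assoc]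
      _ = sg (f v) • ((M.p a)ᵀ * M.p v * O) := by
          rw [hf v, Matrix.mul_smul, Matrix.mul_assoc]
      _ = (sg (f v) * sg (f v)) • (M.p v * ((M.p a)ᵀ * O)) := by
          rw [hcomm, Matrix.smul_mul, smul_smul, Matrix.mul_assoc]
      _ = M.p v * ((M.p a)ᵀ * O) := by rw [sg_mul_self, one_smul])
  have hOc : O = c • M.p a := by
    calc O = (M.p a * (M.p a)ᵀ) * O := by rw [mul_tr, Matrix.one_mul]
      _ = M.p a * ((M.p a)ᵀ * O) := by rw [Matrix.mul_assoc]
      _ = c • M.p a := by rw [hc, Matrix.mul_smul, Matrix.mul_one]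
  have hc2 : c * c = 1 := by
    have h5 := hO
    rw [hOc, Matrix.transpose_smul, Matrix.smul_mul, Matrix.mul_smul, tr_mul, smul_smul] at h5
    exact smul_one_inj (Y := Y) (by rw [h5, one_smul])
  have hc3 : c = 1 ∨ c = -1 := by
    have : (c - 1) * (c + 1) = 0 := by linear_combination hc2
    rcases mul_eq_zero.mp this with h | h
    · left; linarith
    · right; linarith
  rcases hc3 with rfl | rfl
  · exact ⟨a, 0, by simpa using hOc⟩
  · exact ⟨a, 1, by simpa using hOc⟩

end Model

end Model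

end Cfsg.Agent.Lib.RealClifford
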