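import Mathlib
import Cfsg.Agent.Lib.RealClifford.Model

/-!
# Lifting isometries of the quadratic space to orthogonal operators
-/

set_option autoImplicit false

namespace Cfsg.Agent.Lib.RealClifford

open Matrix

theorem exists_quad {U : Type*} [AddCommGroup U] [Module (ZMod 2) U] [Module.Finite (ZMod 2) U]
    (c : U →ₗ[ZMod 2] U →ₗ[ZMod 2] ZMod 2) (hsym : ∀ u v, c u v = c v u) (halt : ∀ u, c u u = 0) :
    ∃ κ : U → ZMod 2, ∀ u v, κ (u + v) = κ u + κ v + c u v := by
  classical
  let b := Module.finBasis (ZMod 2) U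
  let x : U → Fin (Module.finrank (ZMod 2) U) → ZMod 2 := fun u i => b.repr u i
  have hx : ∀ u v i, x (u + v) i = x u i + x v i := fun u v i => by simp [x]
  let C : Fin (Module.finrank (ZMod 2) U) → Fin (Module.finrank (ZMod 2) U) → ZMod 2 :=
    fun i j => c (b i) (b j)
  let B : U → U → ZMod 2 := fun u v => ∑ i, ∑ j, if i < j then C i j * x u i * x v j else 0
  refine ⟨fun u => B u u, ?_⟩
  have hBl : ∀ u u' v, B (u + u') v = B u v + B u' v := by
    intro u u' v
    simp only [B]
    rw [← Finset.sum_add_distrib]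
    refine Finset.sum_congr rfl fun i _ => ?_
    rw [← Finset.sum_add_distrib]
    refine Finset.sum_congr rfl fun j _ => ?_
    rw [hx]
    split_ifs <;> ring
  have hBr : ∀ u v v', B u (v + v') = B u v + B u v' := by
    intro u v v'
    simp only [B]
    rw [← Finset.sum_add_distrib]
    refine Finset.sum_congr rfl fun i _ => ?_
    rw [← Finset.sum_add_distrib]
    refine Finset.sum_congr rfl fun j _ => ?_
    rw [hx]
    split_ifs <;> ring
  have hc : ∀ u v, c u v = ∑ i, ∑ j, C i j * x u i * x v j := by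
    intro u v
    conv_lhs => rw [← b.sum_repr u, ← b.sum_repr v]
    simp only [map_sum, LinearMap.sum_apply, map_smul, LinearMap.smul_apply, smul_eq_mul, C, x]
    rw [Finset.sum_comm (f := fun i j => c (b i) (b j) * (b.repr u) i * (b.repr v) j)]
    refine Finset.sum_congr rfl fun i _ => ?_
    rw [Finset.mul_sum]
    refine Finset.sum_congr rfl fun j _ => ?_
    ring
  have hcB : ∀ u v, B u v + B v u = c u v := by
    intro u v
    have h1 : B v u = ∑ i, ∑ j, if j < i then C i j * x u i * x v j else 0 := by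
      simp only [B]
      rw [Finset.sum_comm]
      refine Finset.sum_congr rfl fun i _ => Finset.sum_congr rfl fun j _ => ?_
      by_cases hji : j < i
      · simp only [hji, if_true]
        have : C j i = C i j := hsym _ _
        rw [this]; ring
      · simp only [hji, if_false]
    rw [h1, hc]
    simp only [B]
    rw [← Finset.sum_add_distrib]
    refine Finset.sum_congr rfl fun i _ => ?_
    rw [← Finset.sum_add_distrib]
    refine Finset.sum_congr rfl fun j _ => ?_
    rcases lt_trichotomy i j with h | h | h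
    · simp [h, not_lt.mpr h.le]
    · subst h
      have : C i i = 0 := halt _
      simp [this]
    · simp [h, not_lt.mpr h.le]
  intro u v
  simp only []
  rw [hBl, hBr, hBr, ← hcB u v]
  ring

theorem single_mul_apply {Y : Type} [Fintype Y] [DecidableEq Y] (A C : Matrix Y Y ℝ) (a b i j : Y) :
    (A * Matrix.single a b (1 : ℝ) * C) i j = A i a * C b j := by
  have h : ∀ x, (A * Matrix.single a b (1 : ℝ)) i x = if b = x then A i a else 0 := by
    intro x
    rw [Matrix.mul_apply, Finset.sum_eq_single a]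
    · by_cases hb : b = x <;> simp [Matrix.single_apply, hb]
    · intro y _ hy
      simp [Matrix.single_apply, hy.symm]
    · simp
  rw [Matrix.mul_apply, Finset.sum_eq_single b]
  · simp [h]
  · intro y _ hy
    simp [h, hy.symm]
  · simp

section

variable {U : Type*} [AddCommGroup U] [Module (ZMod 2) U]
variable {Y : Type} [Fintype Y] [DecidableEq Y] [Nonempty Y]
variable {q : QuadraticForm (ZMod 2) U} (M : Model q Y)

theorem Model.lift [Module.Finite (ZMod 2) U]
    (hsep : ∀ u : U, (∀ v, QuadraticMap.polar q u v = 0) → u = 0)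
    (g : U →ₗ[ZMod 2] U) (hg : ∀ u, q (g u) = q u) :
    ∃ O : Matrix Y Y ℝ, Oᵀ * O = 1 ∧ ∀ v, ∃ t, O * M.p v = sg t • (M.p (g v) * O) := by
  classical
  haveI : Finite U := Module.finite_of_finite (ZMod 2)
  haveI := Fintype.ofFinite U
  let c : U →ₗ[ZMod 2] U →ₗ[ZMod 2] ZMod 2 := M.s.compl₁₂ g g + M.s
  have hc : ∀ u v, c u v = M.s (g u) (g v) + M.s u v := fun u v => rfl
  have hpol : ∀ u v, QuadraticMap.polar q (g u) (g v) = QuadraticMap.polar q u v := by
    intro u v
    simp only [QuadraticMap.polar, ← map_add, hg]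
  have aux : ∀ a b c d : ZMod 2, a + c = b + d → a + b = c + d := by decide
  have hsym : ∀ u v, c u v = c v u := by
    intro u v
    rw [hc, hc]
    apply aux
    rw [← M.polar_eq, ← M.polar_eq, hpol]
  have halt : ∀ u, c u u = 0 := by
    intro u
    rw [hc, M.s_self, M.s_self, hg]
    exact add_self_mod2 _
  obtain ⟨κ, hκ⟩ := exists_quad c hsym halt
  have hκ0 : κ 0 = 0 := by
    have h1 := hκ 0 0
    simp only [add_zero, map_zero, LinearMap.zero_apply] at h1
    have h2 : κ 0 + κ 0 = 0 := add_self_mod2 _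
    rw [h2] at h1
    exact h1
  let p' : U → Matrix Y Y ℝ := fun u => sg (κ u) • M.p (g u)
  have hp' : ∀ u, p' u = sg (κ u) • M.p (g u) := fun u => rfl
  have p'_mul : ∀ u v, p' u * p' v = sg (M.s u v) • p' (u + v) := by
    intro u v
    rw [hp', hp', hp', Matrix.smul_mul, Matrix.mul_smul, M.p_mul, smul_smul, smul_smul, smul_smul,
      map_add, hκ, hc, sg_add, sg_add, sg_add]
    congr 1
    have := sg_mul_self (M.s u v)
    linear_combination (- sg (κ u) * sg (κ v) * sg (M.s (g u) (g v))) * this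
  have p'_tr : ∀ u, (p' u)ᵀ * p' u = 1 := by
    intro u
    rw [hp', Matrix.transpose_smul, Matrix.smul_mul, Matrix.mul_smul, M.tr_mul, smul_smul, sg_mul_self,
      one_smul]
  let T : Matrix Y Y ℝ → Matrix Y Y ℝ := fun N => ∑ u, p' u * N * (M.p u)ᵀ
  have hTdef : ∀ N, T N = ∑ u, p' u * N * (M.p u)ᵀ := fun N => rfl
  have htr : ∀ v u, (M.p (v + u))ᵀ * M.p v = sg (M.s v u) • (M.p u)ᵀ := by
    intro v u
    have h1 := congrArg Matrix.transpose (M.p_mul v u)
    rw [Matrix.transpose_mul, Matrix.transpose_smul] at h1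
    have h2 : (M.p u)ᵀ = sg (M.s v u) • ((M.p (v + u))ᵀ * M.p v) := by
      rw [← Matrix.smul_mul, ← h1, Matrix.mul_assoc, M.tr_mul, Matrix.mul_one]
    rw [h2, smul_smul, sg_mul_self, one_smul]
  have hT : ∀ N v, p' v * T N = T N * M.p v := by
    intro N v
    rw [hTdef, Finset.mul_sum, Finset.sum_mul, ← Equiv.sum_comp (Equiv.addLeft v)
      (fun u => p' u * N * (M.p u)ᵀ * M.p v)]
    refine Finset.sum_congr rfl fun u _ => ?_
    simp only [Equiv.coe_addLeft]
    rw [Matrix.mul_assoc (p' (v + u) * N), htr, Matrix.mul_smul, ← Matrix.mul_assoc (p' v), ← Matrix.mul_assoc (p' v), p'_mul]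
    simp only [Matrix.smul_mul, Matrix.mul_smul]
  have hne : ∃ N, T N ≠ 0 := by
    by_contra hall
    push Not at hall
    obtain ⟨a⟩ := ‹Nonempty Y›
    have h1 : ∑ b, (T (Matrix.single a b (1 : ℝ))) a b = 0 := by
      simp [hall]
    have h2 : ∀ b, (T (Matrix.single a b (1 : ℝ))) a b = ∑ u, p' u a a * M.p u b b := by
      intro b
      rw [hTdef, Matrix.sum_apply]
      refine Finset.sum_congr rfl fun u _ => ?_
      rw [single_mul_apply, Matrix.transpose_apply]
    simp only [h2] at h1
    rw [Finset.sum_comm] at h1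
    have h3 : ∀ u, ∑ b, p' u a a * M.p u b b = p' u a a * Matrix.trace (M.p u) := by
      intro u
      rw [Matrix.trace, Finset.mul_sum]
      rfl
    simp only [h3] at h1
    rw [Finset.sum_eq_single (0 : U)] at h1
    · have hp0 : p' 0 = 1 := by rw [hp', map_zero, M.p_zero, hκ0, sg_zero, one_smul]
      rw [hp0, M.p_zero, Matrix.trace_one, Matrix.one_apply_eq, one_mul] at h1
      exact card_ne_real Y h1
    · intro u _ hu
      rw [M.trace_p hu hsep, mul_zero]
    · intro h; exact absurd (Finset.mem_univ _) h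
  obtain ⟨N, hN⟩ := hne
  set A := T N with hA
  have hA1 : ∀ v, p' v * A = A * M.p v := hT N
  have hp'tr2 : ∀ v, p' v * (p' v)ᵀ = 1 := fun v => mul_eq_one_comm.mp (p'_tr v)
  have hA2 : ∀ v, M.p v * Aᵀ = Aᵀ * p' v := by
    intro v
    have h1 := congrArg Matrix.transpose (hA1 v)
    rw [Matrix.transpose_mul, Matrix.transpose_mul] at h1
    calc M.p v * Aᵀ = M.p v * (Aᵀ * ((p' v)ᵀ * p' v)) := by rw [p'_tr, Matrix.mul_one]
      _ = M.p v * ((Aᵀ * (p' v)ᵀ) * p' v) := by simp only [Matrix.mul_assoc]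
      _ = M.p v * (((M.p v)ᵀ * Aᵀ) * p' v) := by rw [h1]
      _ = (M.p v * (M.p v)ᵀ) * Aᵀ * p' v := by simp only [Matrix.mul_assoc]
      _ = Aᵀ * p' v := by rw [M.mul_tr, Matrix.one_mul]
  obtain ⟨d, hd⟩ := M.irr (Aᵀ * A) (by
    intro v
    rw [Matrix.mul_assoc, ← hA1, ← Matrix.mul_assoc, ← hA2, Matrix.mul_assoc])
  have hdpos : 0 < d := by
    have : ∃ i j, A i j ≠ 0 := by
      by_contra h
      push Not at h
      exact hN (Matrix.ext h)
    obtain ⟨i, j, hij⟩ := this
    have h1 := congrFun (congrFun hd j) j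
    simp only [Matrix.mul_apply, Matrix.transpose_apply, Matrix.smul_apply, Matrix.one_apply_eq,
      smul_eq_mul, mul_one] at h1
    rw [← h1]
    have h2 : A i j * A i j ≤ ∑ k, A k j * A k j :=
      Finset.single_le_sum (f := fun k => A k j * A k j) (fun k _ => mul_self_nonneg _) (Finset.mem_univ i)
    have h3 : 0 < A i j * A i j := mul_self_pos.mpr hij
    linarith
  have hsq : Real.sqrt d * Real.sqrt d = d := Real.mul_self_sqrt hdpos.le
  have hsq0 : Real.sqrt d ≠ 0 := (Real.sqrt_pos.mpr hdpos).ne'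
  refine ⟨(Real.sqrt d)⁻¹ • A, ?_, ?_⟩
  · rw [Matrix.transpose_smul, Matrix.smul_mul, Matrix.mul_smul, hd, smul_smul, smul_smul]
    have : (Real.sqrt d)⁻¹ * (Real.sqrt d)⁻¹ * d = 1 := by
      calc (Real.sqrt d)⁻¹ * (Real.sqrt d)⁻¹ * d
          = (Real.sqrt d)⁻¹ * (Real.sqrt d)⁻¹ * (Real.sqrt d * Real.sqrt d) := by rw [hsq]
        _ = 1 := by field_simp
    rw [this, one_smul]
  · intro v
    refine ⟨κ v, ?_⟩
    rw [Matrix.smul_mul, ← hA1, hp', Matrix.smul_mul, Matrix.mul_smul, smul_comm]

end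

end Cfsg.Agent.Lib.RealClifford
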