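import Mathlib
import Cfsg.Agent.Lib.RealClifford.Lift

/-!
# The Schrödinger-type construction of the model from a totally singular half-dimensional subspace
-/

set_option autoImplicit false

namespace Cfsg.Agent.Lib.RealClifford

open Matrix

section

variable {U : Type*} [AddCommGroup U] [Module (ZMod 2) U]
variable {Y : Type} [Fintype Y] [DecidableEq Y] [AddCommGroup Y] [Module (ZMod 2) Y]

/-- The signed translation operators. -/
noncomputable def pMat (π : U →ₗ[ZMod 2] Y) (a : U →ₗ[ZMod 2] Y →ₗ[ZMod 2] ZMod 2) (u : U) : Matrix Y Y ℝ :=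
  Matrix.of fun x x' => sg (a u x) * (if x' = x + π u then 1 else 0)

theorem pMat_apply (π : U →ₗ[ZMod 2] Y) (a : U →ₗ[ZMod 2] Y →ₗ[ZMod 2] ZMod 2) (u : U) (x x' : Y) :
    pMat π a u x x' = sg (a u x) * (if x' = x + π u then 1 else 0) := rfl

theorem eq_add_iff_mod2 {x y z : Y} : x = y + z ↔ y = x + z := by
  constructor
  · rintro rfl
    rw [add_assoc, add_self_mod2, add_zero]
  · rintro rfl
    rw [add_assoc, add_self_mod2, add_zero]

theorem mul_pMat_apply (π : U →ₗ[ZMod 2] Y) (a : U →ₗ[ZMod 2] Y →ₗ[ZMod 2] ZMod 2) (u : U) (T : Matrix Y Y ℝ)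
    (x x₁ : Y) : (T * pMat π a u) x x₁ = T x (x₁ + π u) * sg (a u (x₁ + π u)) := by
  rw [Matrix.mul_apply, Finset.sum_eq_single (x₁ + π u)]
  · rw [pMat_apply, if_pos (by rw [add_assoc, add_self_mod2, add_zero]), mul_one]
  · intro y _ hy
    rw [pMat_apply, if_neg, mul_zero, mul_zero]
    intro h
    exact hy (eq_add_iff_mod2.mp h)
  · simp

theorem pMat_mul_apply (π : U →ₗ[ZMod 2] Y) (a : U →ₗ[ZMod 2] Y →ₗ[ZMod 2] ZMod 2) (u : U) (T : Matrix Y Y ℝ)
    (x x₁ : Y) : (pMat π a u * T) x x₁ = sg (a u x) * T (x + π u) x₁ := by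
  rw [Matrix.mul_apply, Finset.sum_eq_single (x + π u)]
  · rw [pMat_apply, if_pos rfl, mul_one]
  · intro y _ hy
    rw [pMat_apply, if_neg hy, mul_zero, zero_mul]
  · simp

variable [Nonempty Y]

/-- The model attached to the data. -/
noncomputable def modelOf (q : QuadraticForm (ZMod 2) U) (π : U →ₗ[ZMod 2] Y)
    (a : U →ₗ[ZMod 2] Y →ₗ[ZMod 2] ZMod 2) (hq : ∀ u, a u (π u) = q u) (hπ : Function.Surjective π)
    (hsepa : ∀ x : Y, x ≠ 0 → ∃ w, π w = 0 ∧ a w x ≠ 0) : Model q Y where
  p := pMat π a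
  s := a.flip.comp π
  p_zero := by
    ext x x'
    rw [pMat_apply, map_zero, map_zero, LinearMap.zero_apply, sg_zero, one_mul, add_zero, Matrix.one_apply]
    by_cases h : x = x'
    · subst h; simp
    · rw [if_neg h, if_neg (Ne.symm h)]
  p_mul := by
    intro u v
    ext x x''
    rw [pMat_mul_apply, Matrix.smul_apply, pMat_apply, pMat_apply, smul_eq_mul, map_add, map_add,
      LinearMap.add_apply, map_add, add_assoc x]
    have h1 : (a.flip.comp π) u v = a v (π u) := rfl
    rw [h1, sg_add, sg_add]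
    ring
  s_self := by
    intro u
    exact hq u
  p_tr := by
    intro u
    ext x x'
    rw [Matrix.transpose_apply, Matrix.smul_apply, pMat_apply, pMat_apply, smul_eq_mul]
    by_cases h : x' = x + π u
    · subst h
      rw [if_pos (by rw [add_assoc, add_self_mod2, add_zero]), if_pos rfl, map_add, sg_add, hq]
      ring
    · rw [if_neg h, if_neg (fun h2 => h (eq_add_iff_mod2.mp h2))]
      simp
  irr := by
    intro T hT
    have hoff : ∀ x x', x ≠ x' → T x x' = 0 := by
      intro x x' hne
      have h0 : x + x' ≠ 0 := fun h => hne (eq_of_add_eq_zero_mod2 h)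
      obtain ⟨w, hw, hwa⟩ := hsepa _ h0
      have h1 := congrFun (congrFun (hT w) x) x'
      rw [mul_pMat_apply, pMat_mul_apply, hw, add_zero, add_zero] at h1
      have h2 : a w x ≠ a w x' := by
        intro h3
        apply hwa
        rw [map_add, h3]
        exact add_self_mod2 _
      have h3 : sg (a w x') - sg (a w x) ≠ 0 := by
        intro h4
        exact h2 (sg_inj (by linarith))
      have h4 : T x x' * (sg (a w x') - sg (a w x)) = 0 := by linear_combination h1
      exact (mul_eq_zero.mp h4).resolve_right h3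
    have hdiag : ∀ x, T x x = T 0 0 := by
      intro x
      obtain ⟨u, rfl⟩ := hπ x
      have h1 := congrFun (congrFun (hT u) 0) (π u)
      rw [mul_pMat_apply, pMat_mul_apply, add_self_mod2, zero_add, map_zero, sg_zero, one_mul, mul_one] at h1
      exact h1.symm
    refine ⟨T 0 0, ?_⟩
    ext i j
    rw [Matrix.smul_apply, Matrix.one_apply, smul_eq_mul]
    by_cases h : i = j
    · subst h; simp [hdiag i]
    · simp [h, hoff i j h]

end

theorem exists_data {U : Type*} [AddCommGroup U] [Module (ZMod 2) U] [Module.Finite (ZMod 2) U] (n : ℕ)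
    (hn : Module.finrank (ZMod 2) U = 2 * n) (q : QuadraticForm (ZMod 2) U)
    (hnd : (QuadraticMap.polarBilin q).Nondegenerate) (W : Submodule (ZMod 2) U)
    (hW : Module.finrank (ZMod 2) ↥W = n) (hWq : ∀ w ∈ W, q w = 0) :
    ∃ (π : U →ₗ[ZMod 2] (Fin n → ZMod 2)) (a : U →ₗ[ZMod 2] (Fin n → ZMod 2) →ₗ[ZMod 2] ZMod 2),
      (∀ u, a u (π u) = q u) ∧ Function.Surjective π ∧ ∀ x, x ≠ 0 → ∃ w, π w = 0 ∧ a w x ≠ 0 := by
  classical
  obtain ⟨W', hc⟩ := Submodule.exists_isCompl W
  let pW : U →ₗ[ZMod 2] W := Submodule.projectionOnto W W' hc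
  let pW' : U →ₗ[ZMod 2] W' := Submodule.projectionOnto W' W hc.symm
  have hdec : ∀ u, (pW u : U) + (pW' u : U) = u := fun u =>
    Submodule.projection_add_projection_eq_self hc u
  have hrank : Module.finrank (ZMod 2) ↥W' = n := by
    have := Submodule.finrank_add_eq_of_isCompl hc
    omega
  let e : W' ≃ₗ[ZMod 2] (Fin n → ZMod 2) :=
    LinearEquiv.ofFinrankEq _ _ (by rw [hrank]; simp)
  let qW : QuadraticForm (ZMod 2) W' := q.comp W'.subtype
  let B : LinearMap.BilinMap (ZMod 2) W' (ZMod 2) := qW.toBilin (Module.finBasis (ZMod 2) W')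
  have hB : ∀ y : W', B y y = q y := by
    intro y
    have := QuadraticMap.toQuadraticMap_toBilin qW (Module.finBasis (ZMod 2) W')
    have h2 := congrArg (fun Q : QuadraticMap (ZMod 2) W' (ZMod 2) => Q y) this
    simpa [qW, B, LinearMap.BilinMap.toQuadraticMap_apply] using h2
  let β := QuadraticMap.polarBilin q
  let a : U →ₗ[ZMod 2] (Fin n → ZMod 2) →ₗ[ZMod 2] ZMod 2 :=
    β.compl₁₂ (W.subtype.comp pW) (W'.subtype.comp e.symm.toLinearMap) +
      B.compl₁₂ pW' e.symm.toLinearMap
  let π : U →ₗ[ZMod 2] (Fin n → ZMod 2) := e.toLinearMap.comp pW'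
  have ha : ∀ u x, a u x = QuadraticMap.polar q (pW u : U) (e.symm x : U) + B (pW' u) (e.symm x) :=
    fun u x => rfl
  have hπ : ∀ u, π u = e (pW' u) := fun u => rfl
  refine ⟨π, a, ?_, ?_, ?_⟩
  · intro u
    rw [ha, hπ, LinearEquiv.symm_apply_apply, hB]
    conv_rhs => rw [← hdec u]
    rw [QuadraticMap.map_add q, hWq _ (pW u).2, zero_add, add_comm]
  · intro x
    refine ⟨(e.symm x : U), ?_⟩
    rw [hπ]
    have : pW' (e.symm x : U) = e.symm x := Submodule.projectionOnto_apply_left hc.symm _
    rw [this, LinearEquiv.apply_symm_apply]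
  · intro x hx
    by_contra hall
    push Not at hall
    have hy0 : (e.symm x : U) ≠ 0 := by
      intro h
      apply hx
      have : e.symm x = 0 := Subtype.ext h
      simpa using this
    have hpW'0 : ∀ w : W, pW' (w : U) = 0 := fun w =>
      Submodule.projectionOnto_apply_right hc.symm w
    have hpW0 : ∀ w : W, pW (w : U) = w := fun w =>
      Submodule.projectionOnto_apply_left hc w
    have hrefl : LinearMap.BilinForm.IsRefl β := by
      intro u v h
      have : QuadraticMap.polar q v u = QuadraticMap.polar q u v := QuadraticMap.polar_comm _ _ _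
      change QuadraticMap.polar q v u = 0
      rw [this]
      exact h
    have hle : W ≤ LinearMap.BilinForm.orthogonal β W := by
      intro w hw
      rw [LinearMap.BilinForm.mem_orthogonal_iff]
      intro w' hw'
      change QuadraticMap.polar q w' w = 0
      unfold QuadraticMap.polar
      rw [hWq _ (W.add_mem hw' hw), hWq _ hw', hWq _ hw]
      simp
    have hfr : Module.finrank (ZMod 2) ↥(LinearMap.BilinForm.orthogonal β W) = n := by
      have h7 := LinearMap.BilinForm.finrank_orthogonal hnd W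
      rw [hn, hW] at h7
      rw [show Module.finrank (ZMod 2) ↥(LinearMap.BilinForm.orthogonal β W) = 2 * n - n from h7]
      omega
    have heq : W = LinearMap.BilinForm.orthogonal β W :=
      Submodule.eq_of_le_of_finrank_eq hle (by rw [hW, hfr])
    have hymem : (e.symm x : U) ∈ LinearMap.BilinForm.orthogonal β W := by
      rw [LinearMap.BilinForm.mem_orthogonal_iff]
      intro w hw
      have h1 := hall w (by rw [hπ, hpW'0 ⟨w, hw⟩, map_zero])
      rw [ha, hpW0 ⟨w, hw⟩, hpW'0 ⟨w, hw⟩, map_zero, LinearMap.zero_apply, add_zero] at h1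
      exact h1
    rw [← heq] at hymem
    exact hy0 ((Submodule.disjoint_def.mp hc.disjoint) _ hymem (e.symm x).2)

end Cfsg.Agent.Lib.RealClifford
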